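import Cfsg.Agent.H224.CandAlt
import Cfsg.Agent.S0243
import Cfsg.Agent.S0280
import Cfsg.Agent.S0292
import Cfsg.Agent.S0293
import Cfsg.Agent.S0294
import Cfsg.Agent.S1059
import Cfsg.Agent.S1067

/-!
# `Cand2`: elimination of some small groups by their orders (helper224)
-/

set_option autoImplicit false

namespace Cfsg.Agent.H224.CandElim

open Cfsg.Agent.H373.C2 Cfsg.Agent.H373.T5

variable {F : Type*} [Field F] [Fintype F] {m : ℕ}

theorem psl33 (hF : Fintype.card F = 3) (h : Cand2 m (Matrix.ProjectiveSpecialLinearGroup (Fin 3) F)) : False := by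
  have ho := Cfsg.Agent.S0243.result hF 3 (by norm_num)
  refine elim_card h 4 (c := 5616) ?_ (by norm_num) (by norm_num) (by decide +kernel)
  norm_num [Fin.prod_univ_succ] at ho
  omega

theorem psl43 (hF : Fintype.card F = 3) (h : Cand2 m (Matrix.ProjectiveSpecialLinearGroup (Fin 4) F)) : False := by
  have ho := Cfsg.Agent.S0243.result hF 4 (by norm_num)
  refine elim_card h 5 (c := 6065280) ?_ (by norm_num) (by norm_num) (by decide +kernel)
  norm_num [Fin.prod_univ_succ] at ho
  omega

theorem psu33 (hF : Fintype.card F = 3 ^ 2) (h : Cand2 m (Cfsg.PSU 3 F 3)) : False := by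
  have ho := Cfsg.Agent.S0280.result hF 3 (by norm_num)
  refine elim_card h 4 (c := 6048) ?_ (by norm_num) (by norm_num) (by decide +kernel)
  norm_num [Finset.prod_range_succ] at ho
  omega

theorem psu35 (hF : Fintype.card F = 5 ^ 2) (h : Cand2 m (Cfsg.PSU 3 F 5)) : False := by
  have ho := Cfsg.Agent.S0280.result hF 3 (by norm_num)
  refine elim_card h 4 (c := 126000) ?_ (by norm_num) (by norm_num) (by decide +kernel)
  norm_num [Finset.prod_range_succ] at ho
  omega

theorem psu43 (hF : Fintype.card F = 3 ^ 2) (h : Cand2 m (Cfsg.PSU 4 F 3)) : False := by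
  have ho := Cfsg.Agent.S0280.result hF 4 (by norm_num)
  refine elim_card h 5 (c := 3265920) ?_ (by norm_num) (by norm_num) (by decide +kernel)
  norm_num [Finset.prod_range_succ] at ho
  omega

theorem o73 (hF : Fintype.card F = 3) (h : Cand2 m (Cfsg.POmega F (Cfsg.quadFormOdd 3 F))) : False := by
  have ho := Cfsg.Agent.S0292.result hF (by decide) 3 (by norm_num)
  refine elim_card h 6 (c := 4585351680) ?_ (by norm_num) (by norm_num) (by decide +kernel)
  norm_num [Finset.prod_range_succ] at ho
  omega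

theorem o8p3 (hF : Fintype.card F = 3) (h : Cand2 m (Cfsg.POmega F (Cfsg.quadFormPlus 4 F))) : False := by
  have ho := Cfsg.Agent.S0293.result hF 4 (by norm_num)
  refine elim_card h 8 (c := 4952179814400) ?_ (by norm_num) (by norm_num) (by decide +kernel)
  norm_num [Finset.prod_range_succ] at ho
  omega

theorem o8m3 (hF : Fintype.card F = 3) (a b : F)
    (hab : ∀ z₁ z₂ : F, z₁ ^ 2 + a * z₁ * z₂ + b * z₂ ^ 2 = 0 → z₁ = 0 ∧ z₂ = 0)
    (h : Cand2 m (Cfsg.POmega F (Cfsg.quadFormMinus 3 F a b))) : False := by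
  have ho : Nat.gcd 4 (3 ^ 4 + 1) * Nat.card (Cfsg.POmega F (Cfsg.quadFormMinus 3 F a b)) =
      3 ^ (4 * (4 - 1)) * (3 ^ 4 + 1) * ∏ i ∈ Finset.range (4 - 1), (3 ^ (2 * (i + 1)) - 1) :=
    Cfsg.Agent.S0294.result hF 4 (by norm_num) a b hab
  refine elim_card h 8 (c := 10151968619520) ?_ (by norm_num) (by norm_num) (by decide +kernel)
  norm_num [Finset.prod_range_succ] at ho
  omega

theorem g23 (hF : Fintype.card F = 3) (h : Cand2 m ↥(Cfsg.Lie.chevG2.group F)) : False := by
  have ho := Cfsg.Agent.S1059.result hF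
  refine elim_card h 5 (c := 4245696) ?_ (by norm_num) (by norm_num) (by decide +kernel)
  norm_num at ho
  exact ho

theorem td43 (hF : Fintype.card F = 3 ^ 3) (h : Cand2 m ↥(Cfsg.Lie.twistedD4 F 3)) : False := by
  have ho := Cfsg.Agent.S1067.result (Nat.prime_three.isPrimePow) hF
  refine elim_card h 8 (c := 20560831566912) ?_ (by norm_num) (by norm_num) (by decide +kernel)
  norm_num at ho
  exact ho

end Cfsg.Agent.H224.CandElim
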