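import Cfsg.Agent.H373.C2
import Cfsg.Agent.S0243
import Cfsg.Agent.OddHalf.Orders.PSpFi23
import Cfsg.Agent.S0293
import Cfsg.Agent.S0294

/-!
# Elimination of the classical groups in characteristic two (helper224)

For helper373's `C2.Cand m (Nat.card S)`: linear, symplectic and orthogonal groups over a field with `2 ^ k`
elements are excluded.
-/

set_option autoImplicit false

namespace Cfsg.Agent.H224.CharTwoElim

open Cfsg.Agent.H373.C2

variable {m k n N : ℕ}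

/-- Numbers of linear type: the primes dividing `N` divide some `q ^ i - 1`, `i ≤ n`, and conversely. -/
theorem linear (h : Cand m N) (hk : 1 ≤ k) (hn : 2 ≤ n)
    (h1 : ∀ p : ℕ, p.Prime → p ≠ 2 → p ∣ N → ∃ i, 1 ≤ i ∧ i ≤ n ∧ orderOf (2 : ZMod p) ∣ i * k)
    (h2 : ∀ p : ℕ, p.Prime → p ≠ 2 → ∀ i, 2 ≤ i → i ≤ n → orderOf (2 : ZMod p) = i * k → p ∣ N) : False := by
  have hm := h.two_le
  obtain ⟨p, hp, hp2, hpe, hpN⟩ := h.exists_ten
  obtain ⟨i, hi1, hin, hi⟩ := h1 p hp hp2 hpN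
  rw [hpe] at hi
  have h3 : 10 * m ≤ i * k := Nat.le_of_dvd (Nat.mul_pos hi1 hk) hi
  have h4 : i * k ≤ n * k := Nat.mul_le_mul_right k hin
  have h5 : Ok m (n * k) := h.ok_of (by omega) (by omega) fun p hp hp2 he => h2 p hp hp2 n hn le_rfl he
  have h6 := h5.eq (by omega) (by omega)
  rcases Nat.lt_or_ge 2 n with h7 | h7
  · have h8 : (n - 1) * k + k = n * k := by
      obtain ⟨t, rfl⟩ : ∃ t, n = t + 1 := ⟨n - 1, by omega⟩
      simp [add_mul]
    have h9 : 3 * k ≤ n * k := Nat.mul_le_mul_right k h7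
    have h10 : Ok m ((n - 1) * k) :=
      h.ok_of (by omega) (by omega) fun p hp hp2 he => h2 p hp hp2 (n - 1) (by omega) (by omega) he
    have h11 := h10.eq (by omega) (by omega)
    omega
  · obtain rfl : n = 2 := by omega
    obtain ⟨p, hp, hp2, hpe, hpN⟩ := h.exists_four
    obtain ⟨i, hi1, hin, hi⟩ := h1 p hp hp2 hpN
    rw [hpe] at hi
    have h8 : k = 5 * m := by omega
    subst h8
    have h9 : 4 ∣ i * 5 := by
      have : 4 * m ∣ (i * 5) * m := by convert hi using 1; ring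
      exact Nat.dvd_of_mul_dvd_mul_right (by omega) this
    interval_cases i <;> omega

/-- Numbers of symplectic type. -/
theorem sympl (h : Cand m N) (hk : 1 ≤ k) (hn : 2 ≤ n)
    (h1 : ∀ p : ℕ, p.Prime → p ≠ 2 → p ∣ N → ∃ i, 1 ≤ i ∧ i ≤ n ∧ orderOf (2 : ZMod p) ∣ 2 * i * k)
    (h2 : ∀ p : ℕ, p.Prime → p ≠ 2 → ∀ i, 1 ≤ i → i ≤ n → orderOf (2 : ZMod p) = 2 * i * k → p ∣ N) : False := by
  have hm := h.two_le
  obtain ⟨p, hp, hp2, hpe, hpN⟩ := h.exists_ten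
  obtain ⟨i, hi1, hin, hi⟩ := h1 p hp hp2 hpN
  rw [hpe] at hi
  have h3 : 10 * m ≤ 2 * i * k := Nat.le_of_dvd (Nat.mul_pos (by omega) hk) hi
  have h4 : 2 * i * k ≤ 2 * n * k := Nat.mul_le_mul_right k (by omega)
  have h5 : Ok m (2 * n * k) := h.ok_of (by omega) (by omega) fun p hp hp2 he => h2 p hp hp2 n (by omega) le_rfl he
  have h6 := h5.eq (by omega) (by omega)
  rcases Nat.lt_or_ge 2 n with h7 | h7
  · have h8 : 2 * (n - 1) * k + 2 * k = 2 * n * k := by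
      obtain ⟨t, rfl⟩ : ∃ t, n = t + 1 := ⟨n - 1, by omega⟩
      simp only [Nat.add_sub_cancel]; ring
    have h9 : 2 * 3 * k ≤ 2 * n * k := Nat.mul_le_mul_right k (by omega)
    have h10 : Ok m (2 * (n - 1) * k) :=
      h.ok_of (by omega) (by omega) fun p hp hp2 he => h2 p hp hp2 (n - 1) (by omega) (by omega) he
    have h11 := h10.eq (by omega) (by omega)
    omega
  · obtain rfl : n = 2 := by omega
    obtain ⟨p, hp, hp2, hpe, hpN⟩ := h.exists_four
    obtain ⟨i, hi1, hin, hi⟩ := h1 p hp hp2 hpN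
    rw [hpe] at hi
    have h8 : 2 * k = 5 * m := by omega
    have h9 : 4 ∣ i * 5 := by
      have : 4 * m ∣ (i * 5) * m := by
        have h10 : 2 * i * k = (i * 5) * m := by
          calc 2 * i * k = i * (2 * k) := by ring
            _ = (i * 5) * m := by rw [h8]; ring
        rwa [h10] at hi
      exact Nat.dvd_of_mul_dvd_mul_right (by omega) this
    interval_cases i <;> omega

/-- Numbers of orthogonal type, `+`. -/
theorem oplus (h : Cand m N) (hk : 1 ≤ k) (hn : 4 ≤ n)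
    (h1 : ∀ p : ℕ, p.Prime → p ≠ 2 → p ∣ N →
      orderOf (2 : ZMod p) ∣ n * k ∨ ∃ i, 1 ≤ i ∧ i ≤ n - 1 ∧ orderOf (2 : ZMod p) ∣ 2 * i * k)
    (h2 : ∀ p : ℕ, p.Prime → p ≠ 2 → ∀ i, 1 ≤ i → i ≤ n - 1 → orderOf (2 : ZMod p) = 2 * i * k → p ∣ N) :
    False := by
  have hm := h.two_le
  obtain ⟨t, rfl⟩ : ∃ t, n = t + 1 := ⟨n - 1, by omega⟩
  simp only [Nat.add_sub_cancel] at h1 h2
  obtain ⟨p, hp, hp2, hpe, hpN⟩ := h.exists_ten
  have h3 : 10 * m ≤ 2 * t * k := by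
    rcases h1 p hp hp2 hpN with hi | ⟨i, hi1, hin, hi⟩
    · rw [hpe] at hi
      have h3 : 10 * m ≤ (t + 1) * k := Nat.le_of_dvd (Nat.mul_pos (by omega) hk) hi
      exact h3.trans (Nat.mul_le_mul_right k (by omega))
    · rw [hpe] at hi
      have h3 : 10 * m ≤ 2 * i * k := Nat.le_of_dvd (Nat.mul_pos (by omega) hk) hi
      exact h3.trans (Nat.mul_le_mul_right k (by omega))
  have h5 : Ok m (2 * t * k) :=
    h.ok_of (by omega) (by omega) fun p hp hp2 he => h2 p hp hp2 t (by omega) le_rfl he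
  have h6 := h5.eq (by omega) (by omega)
  have h8 : 2 * (t - 1) * k + 2 * k = 2 * t * k := by
    obtain ⟨s, rfl⟩ : ∃ s, t = s + 1 := ⟨t - 1, by omega⟩
    simp only [Nat.add_sub_cancel]; ring
  have h9 : 2 * 3 * k ≤ 2 * t * k := Nat.mul_le_mul_right k (by omega)
  have h10 : Ok m (2 * (t - 1) * k) :=
    h.ok_of (by omega) (by omega) fun p hp hp2 he => h2 p hp hp2 (t - 1) (by omega) (by omega) he
  have h11 := h10.eq (by omega) (by omega)
  omega

section Groups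

variable {F : Type*} [Field F] [Fintype F]

theorem odd_pow_sub {p : ℕ} (hp : p.Prime) (hp2 : p ≠ 2) {a : ℕ} (h : p ∣ (2 ^ k) ^ a) : False := by
  have h1 := hp.dvd_of_dvd_pow (hp.dvd_of_dvd_pow h)
  exact hp2 ((Nat.prime_dvd_prime_iff_eq hp Nat.prime_two).1 h1)

theorem dvd_q {p : ℕ} (i : ℕ) : p ∣ (2 ^ k) ^ i - 1 ↔ orderOf (2 : ZMod p) ∣ i * k := by
  rw [← pow_mul, dvd_sub_iff, mul_comm]

theorem psl (hk : 1 ≤ k) (hF : Fintype.card F = 2 ^ k) (hn : 2 ≤ n)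
    (h : Cand m (Nat.card (Matrix.ProjectiveSpecialLinearGroup (Fin n) F))) : False := by
  have ho := Cfsg.Agent.S0243.result hF n hn
  refine linear h hk hn ?_ ?_
  · intro p hp hp2 hpN
    have h1 : p ∣ ∏ i : Fin n, ((2 ^ k) ^ n - (2 ^ k) ^ (i : ℕ)) := by
      rw [← ho]; exact (hpN.mul_left _).mul_left _
    obtain ⟨i, -, hi⟩ := (Prime.dvd_finsetProd_iff hp.prime _).1 h1
    have h2 : (2 ^ k) ^ n - (2 ^ k) ^ (i : ℕ) = (2 ^ k) ^ (i : ℕ) * ((2 ^ k) ^ (n - (i : ℕ)) - 1) := by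
      rw [Nat.mul_sub, mul_one, ← pow_add, Nat.add_sub_cancel' i.2.le]
    rw [h2] at hi
    rcases hp.dvd_mul.1 hi with h3 | h3
    · exact (odd_pow_sub hp hp2 h3).elim
    · exact ⟨n - i, by have := i.2; omega, by omega, (dvd_q _).1 h3⟩
  · intro p hp hp2 i hi2 hin he
    have h1 : p ∣ ∏ i : Fin n, ((2 ^ k) ^ n - (2 ^ k) ^ (i : ℕ)) := by
      refine dvd_trans ?_ (Finset.dvd_prod_of_mem _ (Finset.mem_univ (⟨n - i, by omega⟩ : Fin n)))
      have h2 : (2 ^ k) ^ n - (2 ^ k) ^ (n - i) = (2 ^ k) ^ (n - i) * ((2 ^ k) ^ i - 1) := by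
        rw [Nat.mul_sub, mul_one, ← pow_add, Nat.sub_add_cancel hin]
      show p ∣ (2 ^ k) ^ n - (2 ^ k) ^ (n - i)
      rw [h2]
      exact ((dvd_q _).2 (by rw [he])).mul_left _
    rw [← ho] at h1
    have h4 : ¬ p ∣ 2 ^ k - 1 := by
      intro h5
      have h6 := dvd_sub_iff.1 h5
      rw [he] at h6
      have := Nat.le_of_dvd (by omega) h6
      have h7 : 2 * k ≤ i * k := Nat.mul_le_mul_right k hi2
      omega
    rcases hp.dvd_mul.1 h1 with h3 | h3
    · exact (h4 (h3.trans (Nat.gcd_dvd_right _ _))).elim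
    · exact (hp.dvd_mul.1 h3).resolve_left h4

theorem psp (hk : 1 ≤ k) (hF : Fintype.card F = 2 ^ k) (hn : 2 ≤ n)
    (h : Cand m (Nat.card (Cfsg.PSp n F))) : False := by
  have ho := Cfsg.Agent.OddHalf.Orders.card_psp (F := F) n (by omega)
  have hd : Cfsg.Agent.OddHalf.Orders.spDen (Fintype.card F) = 1 := by
    rw [Cfsg.Agent.OddHalf.Orders.spDen, hF]
    have h1 : ¬ 2 ∣ 2 ^ k - 1 := by
      intro h2
      have h3 : 2 ∣ 2 ^ k := dvd_pow_self 2 (by omega)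
      have := Nat.one_le_two_pow (n := k)
      omega
    exact (Nat.Prime.coprime_iff_not_dvd Nat.prime_two).2 h1
  rw [hd, one_mul, Cfsg.Agent.OddHalf.Orders.sp, hF] at ho
  refine sympl h hk hn ?_ ?_
  · intro p hp hp2 hpN
    rw [ho] at hpN
    rcases hp.dvd_mul.1 hpN with h3 | h3
    · exact (odd_pow_sub hp hp2 h3).elim
    · obtain ⟨x, hx, hpx⟩ := (Prime.dvd_prod_iff hp.prime).1 h3
      obtain ⟨i, hi, rfl⟩ := List.mem_map.1 hx
      rw [List.mem_range] at hi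
      exact ⟨i + 1, by omega, by omega, (dvd_q _).1 hpx⟩
  · intro p hp hp2 i hi2 hin he
    rw [ho]
    refine Dvd.dvd.mul_left ?_ _
    refine dvd_trans ?_ (List.dvd_prod (List.mem_map.2 ⟨i - 1, List.mem_range.2 (by omega), rfl⟩))
    have h1 : i - 1 + 1 = i := by omega
    rw [h1, dvd_q, he]

theorem poplus (hk : 1 ≤ k) (hF : Fintype.card F = 2 ^ k) (hn : 4 ≤ n)
    (h : Cand m (Nat.card (Cfsg.POmega F (Cfsg.quadFormPlus n F)))) : False := by
  have ho := Cfsg.Agent.S0293.result hF n hn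
  have hm := h.two_le
  refine oplus h hk hn ?_ ?_
  · intro p hp hp2 hpN
    have h1 := hpN.mul_left (Nat.gcd 4 ((2 ^ k) ^ n - 1))
    rw [ho] at h1
    rcases hp.dvd_mul.1 h1 with h3 | h3
    · rcases hp.dvd_mul.1 h3 with h4 | h4
      · exact (odd_pow_sub hp hp2 h4).elim
      · exact Or.inl ((dvd_q _).1 h4)
    · obtain ⟨i, hi, hpi⟩ := (Prime.dvd_finsetProd_iff hp.prime _).1 h3
      rw [Finset.mem_range] at hi
      exact Or.inr ⟨i + 1, by omega, by omega, (dvd_q _).1 hpi⟩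
  · intro p hp hp2 i hi2 hin he
    have h1 : p ∣ ∏ i ∈ Finset.range (n - 1), ((2 ^ k) ^ (2 * (i + 1)) - 1) := by
      refine dvd_trans ?_ (Finset.dvd_prod_of_mem _ (Finset.mem_range.2 (show i - 1 < n - 1 by omega)))
      have h1 : i - 1 + 1 = i := by omega
      rw [h1, dvd_q, he]
    have h2 := h1.mul_left ((2 ^ k) ^ (n * (n - 1)) * ((2 ^ k) ^ n - 1))
    rw [← ho] at h2
    rcases hp.dvd_mul.1 h2 with h3 | h3
    · have h4 : p ∣ 2 ^ 2 := h3.trans (Nat.gcd_dvd_left _ _)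
      exact (hp2 ((Nat.prime_dvd_prime_iff_eq hp Nat.prime_two).1 (hp.dvd_of_dvd_pow h4))).elim
    · exact h3

theorem pominus (hk : 1 ≤ k) (hF : Fintype.card F = 2 ^ k) (hn : 4 ≤ n) (a b : F)
    (hab : ∀ z₁ z₂ : F, z₁ ^ 2 + a * z₁ * z₂ + b * z₂ ^ 2 = 0 → z₁ = 0 ∧ z₂ = 0)
    (h : Cand m (Nat.card (Cfsg.POmega F (Cfsg.quadFormMinus (n - 1) F a b)))) : False := by
  have ho := Cfsg.Agent.S0294.result hF n hn a b hab
  have hm := h.two_le
  have key : ∀ p : ℕ, p.Prime → p ≠ 2 → p ∣ (2 ^ k) ^ n + 1 → orderOf (2 : ZMod p) ∣ 2 * n * k := by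
    intro p hp hp2 hd
    rw [← pow_mul, dvd_add_iff hp hp2] at hd
    have := hd.1
    rwa [mul_comm k n, ← mul_assoc] at this
  have key2 : ∀ p : ℕ, p.Prime → p ≠ 2 → orderOf (2 : ZMod p) = 2 * n * k → p ∣ (2 ^ k) ^ n + 1 := by
    intro p hp hp2 he
    rw [← pow_mul, dvd_add_iff hp hp2, he]
    refine ⟨by rw [mul_comm k n, ← mul_assoc], fun h1 => ?_⟩
    have := Nat.le_of_dvd (Nat.mul_pos (by omega) (by omega)) h1
    have h2 : k * n = n * k := mul_comm _ _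
    have h3 : 2 * n * k = 2 * (n * k) := by ring
    have h4 : 0 < n * k := Nat.mul_pos (by omega) (by omega)
    omega
  refine sympl h hk (show 2 ≤ n by omega) ?_ ?_
  · intro p hp hp2 hpN
    have h1 := hpN.mul_left (Nat.gcd 4 ((2 ^ k) ^ n + 1))
    rw [ho] at h1
    rcases hp.dvd_mul.1 h1 with h3 | h3
    · rcases hp.dvd_mul.1 h3 with h4 | h4
      · exact (odd_pow_sub hp hp2 h4).elim
      · exact ⟨n, by omega, le_rfl, key p hp hp2 h4⟩
    · obtain ⟨i, hi, hpi⟩ := (Prime.dvd_finsetProd_iff hp.prime _).1 h3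
      rw [Finset.mem_range] at hi
      exact ⟨i + 1, by omega, by omega, (dvd_q _).1 hpi⟩
  · intro p hp hp2 i hi2 hin he
    have h2 : p ∣ (2 ^ k) ^ (n * (n - 1)) * ((2 ^ k) ^ n + 1) *
        ∏ i ∈ Finset.range (n - 1), ((2 ^ k) ^ (2 * (i + 1)) - 1) := by
      rcases Nat.lt_or_ge i n with h5 | h5
      · refine Dvd.dvd.mul_left ?_ _
        refine dvd_trans ?_ (Finset.dvd_prod_of_mem _ (Finset.mem_range.2 (show i - 1 < n - 1 by omega)))
        have h1 : i - 1 + 1 = i := by omega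
        rw [h1, dvd_q, he]
      · obtain rfl : i = n := by omega
        exact (Dvd.dvd.mul_left (key2 p hp hp2 he) _).mul_right _
    rw [← ho] at h2
    rcases hp.dvd_mul.1 h2 with h3 | h3
    · have h4 : p ∣ 2 ^ 2 := h3.trans (Nat.gcd_dvd_left _ _)
      exact (hp2 ((Nat.prime_dvd_prime_iff_eq hp Nat.prime_two).1 (hp.dvd_of_dvd_pow h4))).elim
    · exact h3

end Groups

end Cfsg.Agent.H224.CharTwoElim
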