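import Cfsg.Agent.H224.CharTwoElim
import Cfsg.Agent.S1059
import Cfsg.Agent.S1062
import Cfsg.Agent.S1063
import Cfsg.Agent.S1064
import Cfsg.Agent.S1065
import Cfsg.Agent.S1066
import Cfsg.Agent.S1067
import Cfsg.Agent.S1068
import Cfsg.Agent.S0280
import Cfsg.Agent.S1163

/-!
# Elimination of the exceptional and unitary groups in characteristic two (helper224)

For helper373's `C2.Cand m (Nat.card S)`.
-/

set_option autoImplicit false

namespace Cfsg.Agent.H224.CharTwoElim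

open Cfsg.Agent.H373.C2

variable {m k N D E : ℕ} {A P : List ℕ}

/-- The largest exponent is `10 m`. -/
theorem top (h : Cand m N) (hk : 1 ≤ k) (hD : D ∈ P) (hA : ∀ a ∈ A, 1 ≤ a ∧ a ≤ D)
    (h1 : ∀ p : ℕ, p.Prime → p ≠ 2 → p ∣ N → ∃ a ∈ A, orderOf (2 : ZMod p) ∣ a * k)
    (h2 : ∀ p : ℕ, p.Prime → p ≠ 2 → ∀ b ∈ P, orderOf (2 : ZMod p) = b * k → p ∣ N) : D * k = 10 * m := by
  have hm := h.two_le
  obtain ⟨p, hp, hp2, hpe, hpN⟩ := h.exists_ten
  obtain ⟨a, ha, hd⟩ := h1 p hp hp2 hpN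
  rw [hpe] at hd
  obtain ⟨ha1, ha2⟩ := hA a ha
  have h3 : 10 * m ≤ a * k := Nat.le_of_dvd (Nat.mul_pos ha1 hk) hd
  have h4 : a * k ≤ D * k := Nat.mul_le_mul_right k ha2
  have h5 : Ok m (D * k) := h.ok_of (by omega) (by omega) fun p hp hp2 he => h2 p hp hp2 D hD he
  exact h5.eq (by omega) (by omega)

/-- First kind of elimination. -/
theorem elim1 (h : Cand m N) (hk : 1 ≤ k) (hD : D ∈ P) (hE : E ∈ P) (hA : ∀ a ∈ A, 1 ≤ a ∧ a ≤ D)
    (h1 : ∀ p : ℕ, p.Prime → p ≠ 2 → p ∣ N → ∃ a ∈ A, orderOf (2 : ZMod p) ∣ a * k)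
    (h2 : ∀ p : ℕ, p.Prime → p ≠ 2 → ∀ b ∈ P, orderOf (2 : ZMod p) = b * k → p ∣ N)
    (hE1 : 6 * D < 10 * E) (hE2 : E < D) : False := by
  have hm := h.two_le
  have h3 := top h hk hD hA h1 h2
  have h4 : 6 * (D * k) < 10 * (E * k) := by
    calc 6 * (D * k) = (6 * D) * k := by ring
      _ < (10 * E) * k := Nat.mul_lt_mul_of_pos_right hE1 hk
      _ = 10 * (E * k) := by ring
  have h5 : E * k < D * k := Nat.mul_lt_mul_of_pos_right hE2 hk
  have h6 : Ok m (E * k) := h.ok_of (by omega) (by omega) fun p hp hp2 he => h2 p hp hp2 E hE he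
  have h7 := h6.eq (by omega) (by omega)
  omega

/-- Second kind of elimination. -/
theorem elim2 (h : Cand m N) (hk : 1 ≤ k) (hD : D ∈ P) (hA : ∀ a ∈ A, 1 ≤ a ∧ a ≤ D)
    (h1 : ∀ p : ℕ, p.Prime → p ≠ 2 → p ∣ N → ∃ a ∈ A, orderOf (2 : ZMod p) ∣ a * k)
    (h2 : ∀ p : ℕ, p.Prime → p ≠ 2 → ∀ b ∈ P, orderOf (2 : ZMod p) = b * k → p ∣ N)
    (hE : ∀ a ∈ A, ¬ 2 * D ∣ 5 * a) : False := by
  have hm := h.two_le
  have h3 := top h hk hD hA h1 h2
  obtain ⟨p, hp, hp2, hpe, hpN⟩ := h.exists_four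
  obtain ⟨a, ha, hd⟩ := h1 p hp hp2 hpN
  rw [hpe] at hd
  apply hE a ha
  have h4 : (4 * D) * m ∣ (10 * a) * m := by
    have h5 : D * (4 * m) ∣ D * (a * k) := Nat.mul_dvd_mul_left D hd
    have h6 : D * (a * k) = (10 * a) * m := by
      calc D * (a * k) = a * (D * k) := by ring
        _ = (10 * a) * m := by rw [h3]; ring
    rw [h6] at h5
    convert h5 using 1
    ring
  have h5 : 4 * D ∣ 10 * a := Nat.dvd_of_mul_dvd_mul_right (by omega) h4
  have h6 : 2 * (2 * D) ∣ 2 * (5 * a) := by convert h5 using 1 <;> ring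
  exact Nat.dvd_of_mul_dvd_mul_left (by norm_num) h6

theorem dvd_q' {p : ℕ} (hp : p.Prime) (hp2 : p ≠ 2) (i : ℕ) :
    p ∣ (2 ^ k) ^ i + 1 ↔ orderOf (2 : ZMod p) ∣ 2 * i * k ∧ ¬ orderOf (2 : ZMod p) ∣ i * k := by
  rw [← pow_mul, dvd_add_iff hp hp2, mul_comm k i, ← mul_assoc]

theorem dvd_q'_of {p : ℕ} (hp : p.Prime) (hp2 : p ≠ 2) {i : ℕ} (hi : 1 ≤ i) (hk : 1 ≤ k)
    (h : orderOf (2 : ZMod p) = 2 * i * k) : p ∣ (2 ^ k) ^ i + 1 := by
  rw [dvd_q' hp hp2, h]
  refine ⟨dvd_rfl, fun h1 => ?_⟩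
  have h2 := Nat.le_of_dvd (Nat.mul_pos hi hk) h1
  have h3 : 0 < i * k := Nat.mul_pos hi hk
  have h4 : 2 * i * k = 2 * (i * k) := by ring
  omega

theorem not_dvd_q {p b : ℕ} (hb : 2 ≤ b) (hk : 1 ≤ k) (he : orderOf (2 : ZMod p) = b * k) : ¬ p ∣ 2 ^ k - 1 := by
  intro h5
  have h6 := dvd_sub_iff.1 h5
  rw [he] at h6
  have := Nat.le_of_dvd (by omega) h6
  have h7 : 2 * k ≤ b * k := Nat.mul_le_mul_right k hb
  omega

theorem not_dvd_q' {p b : ℕ} (hp : p.Prime) (hp2 : p ≠ 2) (hb : 3 ≤ b) (hk : 1 ≤ k)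
    (he : orderOf (2 : ZMod p) = b * k) : ¬ p ∣ 2 ^ k + 1 := by
  intro h5
  have h6 := ((dvd_add_iff hp hp2).1 h5).1
  rw [he] at h6
  have := Nat.le_of_dvd (by omega) h6
  have h7 : 3 * k ≤ b * k := Nat.mul_le_mul_right k hb
  omega

section Groups

variable {F : Type*} [Field F] [Fintype F]

theorem g2 (hk : 1 ≤ k) (hF : Fintype.card F = 2 ^ k) (h : Cand m (Nat.card ↥(Cfsg.Lie.chevG2.group F))) :
    False := by
  rw [Cfsg.Agent.S1059.result hF] at h
  refine elim2 (A := [2, 6]) (P := [6]) (D := 6) h hk (by decide) (by decide) ?_ ?_ (by decide)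
  · intro p hp hp2 hd
    simp only [hp.dvd_mul, dvd_q] at hd
    rcases hd with (hd | hd) | hd
    · exact (odd_pow_sub hp hp2 hd).elim
    · exact ⟨2, by decide, hd⟩
    · exact ⟨6, by decide, hd⟩
  · intro p hp hp2 b hb he
    simp only [List.mem_cons, List.not_mem_nil, or_false] at hb
    subst hb
    simp only [hp.dvd_mul, dvd_q]
    exact Or.inr (by rw [he])

theorem f4 (hk : 1 ≤ k) (hF : Fintype.card F = 2 ^ k) (h : Cand m (Nat.card ↥(Cfsg.Lie.chevF4.group F))) :
    False := by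
  rw [Cfsg.Agent.S1062.result hF] at h
  refine elim1 (A := [2, 6, 8, 12]) (P := [8, 12]) (D := 12) (E := 8) h hk (by decide) (by decide) (by decide)
    ?_ ?_ (by decide) (by decide)
  · intro p hp hp2 hd
    simp only [hp.dvd_mul, dvd_q] at hd
    rcases hd with (((hd | hd) | hd) | hd) | hd
    · exact (odd_pow_sub hp hp2 hd).elim
    · exact ⟨2, by decide, hd⟩
    · exact ⟨6, by decide, hd⟩
    · exact ⟨8, by decide, hd⟩
    · exact ⟨12, by decide, hd⟩
  · intro p hp hp2 b hb he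
    simp only [List.mem_cons, List.not_mem_nil, or_false] at hb
    simp only [hp.dvd_mul, dvd_q, he]
    rcases hb with rfl | rfl
    · exact Or.inl (Or.inr dvd_rfl)
    · exact Or.inr dvd_rfl

theorem e8 (hk : 1 ≤ k) (hF : Fintype.card F = 2 ^ k) (h : Cand m (Nat.card ↥(Cfsg.Lie.chevE8.group F))) :
    False := by
  rw [Cfsg.Agent.S1065.result hF] at h
  refine elim1 (A := [2, 8, 12, 14, 18, 20, 24, 30]) (P := [24, 30]) (D := 30) (E := 24) h hk (by decide)
    (by decide) (by decide) ?_ ?_ (by decide) (by decide)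
  · intro p hp hp2 hd
    simp only [hp.dvd_mul, dvd_q] at hd
    rcases hd with (((((((hd | hd) | hd) | hd) | hd) | hd) | hd) | hd) | hd
    · exact (odd_pow_sub hp hp2 hd).elim
    · exact ⟨2, by decide, hd⟩
    · exact ⟨8, by decide, hd⟩
    · exact ⟨12, by decide, hd⟩
    · exact ⟨14, by decide, hd⟩
    · exact ⟨18, by decide, hd⟩
    · exact ⟨20, by decide, hd⟩
    · exact ⟨24, by decide, hd⟩
    · exact ⟨30, by decide, hd⟩
  · intro p hp hp2 b hb he
    simp only [List.mem_cons, List.not_mem_nil, or_false] at hb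
    simp only [hp.dvd_mul, dvd_q, he]
    rcases hb with rfl | rfl
    · exact Or.inl (Or.inr dvd_rfl)
    · exact Or.inr dvd_rfl

theorem e6 (hk : 1 ≤ k) (hF : Fintype.card F = 2 ^ k) (h : Cand m (Nat.card ↥(Cfsg.Lie.chevE6.group F))) :
    False := by
  have ho := Cfsg.Agent.S1063.result hF
  refine elim1 (A := [2, 5, 6, 8, 9, 12]) (P := [9, 12]) (D := 12) (E := 9) h hk (by decide)
    (by decide) (by decide) ?_ ?_ (by decide) (by decide)
  · intro p hp hp2 hd
    have hd := hd.mul_left (Nat.gcd 3 (2 ^ k - 1))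
    rw [ho] at hd
    simp only [hp.dvd_mul, dvd_q] at hd
    rcases hd with (((((hd | hd) | hd) | hd) | hd) | hd) | hd
    · exact (odd_pow_sub hp hp2 hd).elim
    · exact ⟨2, by decide, hd⟩
    · exact ⟨5, by decide, hd⟩
    · exact ⟨6, by decide, hd⟩
    · exact ⟨8, by decide, hd⟩
    · exact ⟨9, by decide, hd⟩
    · exact ⟨12, by decide, hd⟩
  · intro p hp hp2 b hb he
    simp only [List.mem_cons, List.not_mem_nil, or_false] at hb
    have hb2 : 2 ≤ b := by omega
    have h1 : p ∣ Nat.gcd 3 (2 ^ k - 1) * Nat.card ↥(Cfsg.Lie.chevE6.group F) := by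
      rw [ho]
      simp only [hp.dvd_mul, dvd_q, he]
      rcases hb with rfl | rfl
      · exact Or.inl (Or.inr dvd_rfl)
      · exact Or.inr dvd_rfl
    exact (hp.dvd_mul.1 h1).resolve_left fun h2 => not_dvd_q hb2 hk he (h2.trans (Nat.gcd_dvd_right _ _))

theorem e7 (hk : 1 ≤ k) (hF : Fintype.card F = 2 ^ k) (h : Cand m (Nat.card ↥(Cfsg.Lie.chevE7.group F))) :
    False := by
  have ho := Cfsg.Agent.S1064.result hF
  refine elim1 (A := [2, 6, 8, 10, 12, 14, 18]) (P := [14, 18]) (D := 18) (E := 14) h hk (by decide)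
    (by decide) (by decide) ?_ ?_ (by decide) (by decide)
  · intro p hp hp2 hd
    have hd := hd.mul_left (Nat.gcd 2 (2 ^ k - 1))
    rw [ho] at hd
    simp only [hp.dvd_mul, dvd_q] at hd
    rcases hd with ((((((hd | hd) | hd) | hd) | hd) | hd) | hd) | hd
    · exact (odd_pow_sub hp hp2 hd).elim
    · exact ⟨2, by decide, hd⟩
    · exact ⟨6, by decide, hd⟩
    · exact ⟨8, by decide, hd⟩
    · exact ⟨10, by decide, hd⟩
    · exact ⟨12, by decide, hd⟩
    · exact ⟨14, by decide, hd⟩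
    · exact ⟨18, by decide, hd⟩
  · intro p hp hp2 b hb he
    simp only [List.mem_cons, List.not_mem_nil, or_false] at hb
    have hb2 : 2 ≤ b := by omega
    have h1 : p ∣ Nat.gcd 2 (2 ^ k - 1) * Nat.card ↥(Cfsg.Lie.chevE7.group F) := by
      rw [ho]
      simp only [hp.dvd_mul, dvd_q, he]
      rcases hb with rfl | rfl
      · exact Or.inl (Or.inr dvd_rfl)
      · exact Or.inr dvd_rfl
    exact (hp.dvd_mul.1 h1).resolve_left fun h2 => not_dvd_q hb2 hk he (h2.trans (Nat.gcd_dvd_right _ _))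

theorem te6 (hk : 1 ≤ k) (hF : Fintype.card F = (2 ^ k) ^ 2)
    (h : Cand m (Nat.card ↥(Cfsg.Lie.twistedE6 F (2 ^ k)))) : False := by
  have hq : IsPrimePow (2 ^ k) := Nat.prime_two.isPrimePow.pow (by omega)
  have ho := Cfsg.Agent.S1066.result hq hF
  refine elim1 (A := [2, 10, 6, 8, 18, 12]) (P := [12, 18]) (D := 18) (E := 12) h hk (by decide)
    (by decide) (by decide) ?_ ?_ (by decide) (by decide)
  · intro p hp hp2 hd
    have hd := hd.mul_left (Nat.gcd 3 (2 ^ k + 1))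
    rw [ho] at hd
    simp only [hp.dvd_mul, dvd_q, dvd_q' hp hp2] at hd
    rcases hd with (((((hd | hd) | hd) | hd) | hd) | hd) | hd
    · exact (odd_pow_sub hp hp2 hd).elim
    · exact ⟨2, by decide, hd⟩
    · exact ⟨10, by decide, hd.1⟩
    · exact ⟨6, by decide, hd⟩
    · exact ⟨8, by decide, hd⟩
    · exact ⟨18, by decide, hd.1⟩
    · exact ⟨12, by decide, hd⟩
  · intro p hp hp2 b hb he
    simp only [List.mem_cons, List.not_mem_nil, or_false] at hb
    have hb2 : 3 ≤ b := by omega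
    have h1 : p ∣ Nat.gcd 3 (2 ^ k + 1) * Nat.card ↥(Cfsg.Lie.twistedE6 F (2 ^ k)) := by
      rw [ho]
      rcases hb with rfl | rfl
      · exact Dvd.dvd.mul_left (by rw [dvd_q, he]) _
      · exact (Dvd.dvd.mul_left (dvd_q'_of hp hp2 (by norm_num) hk he) _).mul_right _
    exact (hp.dvd_mul.1 h1).resolve_left fun h2 => not_dvd_q' hp hp2 hb2 hk he (h2.trans (Nat.gcd_dvd_right _ _))

theorem td4 (hk : 1 ≤ k) (hF : Fintype.card F = (2 ^ k) ^ 3)
    (h : Cand m (Nat.card ↥(Cfsg.Lie.twistedD4 F (2 ^ k)))) : False := by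
  have hq : IsPrimePow (2 ^ k) := Nat.prime_two.isPrimePow.pow (by omega)
  have ho := Cfsg.Agent.S1067.result hq hF
  have h12 : (2 ^ k) ^ 12 - 1 = ((2 ^ k) ^ 8 + (2 ^ k) ^ 4 + 1) * ((2 ^ k) ^ 4 - 1) := by
    have h1 : 1 ≤ (2 ^ k) ^ 4 := Nat.one_le_pow _ _ (by positivity)
    have h2 : 1 ≤ (2 ^ k) ^ 12 := Nat.one_le_pow _ _ (by positivity)
    zify [h1, h2]
    ring
  rw [ho] at h
  refine elim2 (A := [2, 6, 12]) (P := [12]) (D := 12) h hk (by decide) (by decide) ?_ ?_ (by decide)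
  · intro p hp hp2 hd
    simp only [hp.dvd_mul, dvd_q] at hd
    rcases hd with ((hd | hd) | hd) | hd
    · exact (odd_pow_sub hp hp2 hd).elim
    · exact ⟨2, by decide, hd⟩
    · exact ⟨6, by decide, hd⟩
    · refine ⟨12, by decide, ?_⟩
      rw [← dvd_q, h12]
      exact hd.mul_right _
  · intro p hp hp2 b hb he
    simp only [List.mem_cons, List.not_mem_nil, or_false] at hb
    subst hb
    have h1 : p ∣ (2 ^ k) ^ 12 - 1 := by rw [dvd_q, he]
    rw [h12, hp.dvd_mul] at h1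
    refine Dvd.dvd.mul_left (h1.resolve_right fun h2 => ?_) _
    rw [dvd_q, he] at h2
    have := Nat.le_of_dvd (by omega) h2
    omega

theorem tf4 {l : ℕ} (hF : Fintype.card F = 2 ^ (2 * l + 1))
    (h : Cand m (Nat.card ↥(Cfsg.Lie.twistedF4 F (2 ^ l)))) : False := by
  rw [Cfsg.Agent.S1068.result hF] at h
  refine elim2 (k := 2 * l + 1) (A := [1, 6, 4, 12]) (P := [12]) (D := 12) h (by omega) (by decide) (by decide)
    ?_ ?_ (by decide)
  · intro p hp hp2 hd
    simp only [hp.dvd_mul, dvd_q, dvd_q' hp hp2] at hd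
    rcases hd with (((hd | hd) | hd) | hd) | hd
    · exact (odd_pow_sub hp hp2 hd).elim
    · exact ⟨1, by decide, by rw [one_mul]; exact dvd_sub_iff.1 hd⟩
    · exact ⟨6, by decide, hd.1⟩
    · exact ⟨4, by decide, hd⟩
    · exact ⟨12, by decide, hd.1⟩
  · intro p hp hp2 b hb he
    simp only [List.mem_cons, List.not_mem_nil, or_false] at hb
    subst hb
    exact Dvd.dvd.mul_left (dvd_q'_of hp hp2 (by norm_num) (by omega) he) _

theorem sz {l : ℕ} (hl : 1 ≤ l) (hF : Fintype.card F = 2 ^ (2 * l + 1))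
    (h : Cand m (Nat.card ↥(Cfsg.Lie.Sz F (2 ^ (l + 1))))) : False := by
  rw [(Cfsg.Agent.S1163.result hl hF).1] at h
  refine elim2 (k := 2 * l + 1) (A := [1, 4]) (P := [4]) (D := 4) h (by omega) (by decide) (by decide)
    ?_ ?_ (by decide)
  · intro p hp hp2 hd
    simp only [hp.dvd_mul, dvd_q' hp hp2] at hd
    rcases hd with (hd | hd) | hd
    · exact (odd_pow_sub hp hp2 hd).elim
    · exact ⟨1, by decide, by rw [one_mul]; exact dvd_sub_iff.1 hd⟩
    · exact ⟨4, by decide, hd.1⟩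
  · intro p hp hp2 b hb he
    simp only [List.mem_cons, List.not_mem_nil, or_false] at hb
    subst hb
    exact Dvd.dvd.mul_left (dvd_q'_of hp hp2 (by norm_num) (by omega) he) _

/-! ### The unitary groups -/

/-- The order of `2` modulo the primitive prime divisors of `q ^ i - (-1) ^ i`. -/
def ue (i : ℕ) : ℕ := if Even i then i else 2 * i

theorem psu_dvd {n : ℕ} (hn : 3 ≤ n) (hF : Fintype.card F = (2 ^ k) ^ 2) {p : ℕ} (hp : p.Prime)
    (hp2 : p ≠ 2) (hd : p ∣ Nat.card (Cfsg.PSU n F (2 ^ k))) :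
    ∃ i, 1 ≤ i ∧ i ≤ n ∧ orderOf (2 : ZMod p) ∣ ue i * k := by
  have ho := Cfsg.Agent.S0280.result hF n (by omega)
  have h1 : p ∣ Nat.gcd n (2 ^ k + 1) * ((2 ^ k + 1) * Nat.card (Cfsg.PSU n F (2 ^ k))) :=
    (hd.mul_left _).mul_left _
  rw [ho] at h1
  rcases hp.dvd_mul.1 h1 with h2 | h2
  · exact (odd_pow_sub hp hp2 h2).elim
  · obtain ⟨i, hi, hpi⟩ := (Prime.dvd_finsetProd_iff hp.prime _).1 h2
    rw [Finset.mem_range] at hi
    refine ⟨i + 1, by omega, by omega, ?_⟩
    split_ifs at hpi with he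
    · rw [dvd_q' hp hp2] at hpi
      rw [ue, if_neg (by rw [Nat.even_add_one]; simpa using he)]
      exact hpi.1
    · rw [dvd_q] at hpi
      rw [ue, if_pos (by rw [Nat.even_add_one]; exact he)]
      exact hpi

theorem psu_of {n : ℕ} (hn : 3 ≤ n) (hk : 1 ≤ k) (hF : Fintype.card F = (2 ^ k) ^ 2) {p : ℕ} (hp : p.Prime)
    (hp2 : p ≠ 2) {i : ℕ} (hi : 3 ≤ i) (hin : i ≤ n) (he : orderOf (2 : ZMod p) = ue i * k) :
    p ∣ Nat.card (Cfsg.PSU n F (2 ^ k)) := by
  have ho := Cfsg.Agent.S0280.result hF n (by omega)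
  have hu : 3 ≤ ue i := by
    rw [ue]; split_ifs <;> omega
  have h1 : p ∣ Nat.gcd n (2 ^ k + 1) * ((2 ^ k + 1) * Nat.card (Cfsg.PSU n F (2 ^ k))) := by
    rw [ho]
    refine Dvd.dvd.mul_left ?_ _
    refine dvd_trans ?_ (Finset.dvd_prod_of_mem _ (Finset.mem_range.2 (show i - 1 < n by omega)))
    have h2 : i - 1 + 1 = i := by omega
    have h3 : Even (i - 1) ↔ ¬ Even i := by
      conv_rhs => rw [← h2, Nat.even_add_one, not_not]
    split_ifs with h4
    · rw [h2]
      rw [ue, if_neg (h3.1 h4)] at he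
      exact dvd_q'_of hp hp2 (by omega) hk he
    · rw [h2, dvd_q]
      rw [ue, if_pos (by tauto)] at he
      rw [he]
  have h5 := not_dvd_q' hp hp2 hu hk he
  rcases hp.dvd_mul.1 h1 with h2 | h2
  · exact (h5 (h2.trans (Nat.gcd_dvd_right _ _))).elim
  · exact (hp.dvd_mul.1 h2).resolve_left h5

/-- The same for every order of `2` which divides the exponent but is too large for `q + 1`. -/
theorem psu_of' {n : ℕ} (hn : 3 ≤ n) (hF : Fintype.card F = (2 ^ k) ^ 2) {p : ℕ} (hp : p.Prime)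
    (hp2 : p ≠ 2) {i : ℕ} (hi : Even i) (hi1 : 1 ≤ i) (hin : i ≤ n) (he : orderOf (2 : ZMod p) ∣ i * k)
    (he2 : ¬ orderOf (2 : ZMod p) ∣ 2 * k) : p ∣ Nat.card (Cfsg.PSU n F (2 ^ k)) := by
  have ho := Cfsg.Agent.S0280.result hF n (by omega)
  have h1 : p ∣ Nat.gcd n (2 ^ k + 1) * ((2 ^ k + 1) * Nat.card (Cfsg.PSU n F (2 ^ k))) := by
    rw [ho]
    refine Dvd.dvd.mul_left ?_ _
    refine dvd_trans ?_ (Finset.dvd_prod_of_mem _ (Finset.mem_range.2 (show i - 1 < n by omega)))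
    have h2 : i - 1 + 1 = i := by omega
    have h3 : Even (i - 1) ↔ ¬ Even i := by
      conv_rhs => rw [← h2, Nat.even_add_one, not_not]
    rw [if_neg (by tauto), h2, dvd_q]
    exact he
  have h5 : ¬ p ∣ 2 ^ k + 1 := fun h6 => he2 (by
    have := ((dvd_add_iff hp hp2).1 h6).1
    exact this)
  rcases hp.dvd_mul.1 h1 with h2 | h2
  · exact (h5 (h2.trans (Nat.gcd_dvd_right _ _))).elim
  · exact (hp.dvd_mul.1 h2).resolve_left h5

/-- **Unitary groups**: only `PSU 5 (2 ^ m)` is left. -/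
theorem psu {n : ℕ} (hn : 3 ≤ n) (hk : 1 ≤ k) (hF : Fintype.card F = (2 ^ k) ^ 2)
    (h : Cand m (Nat.card (Cfsg.PSU n F (2 ^ k)))) : n = 5 ∧ k = m := by
  have hm := h.two_le
  have hdvd : ∀ p : ℕ, p.Prime → p ≠ 2 → p ∣ Nat.card (Cfsg.PSU n F (2 ^ k)) →
      ∃ i, 1 ≤ i ∧ i ≤ n ∧ orderOf (2 : ZMod p) ∣ ue i * k := fun p hp hp2 hd => psu_dvd hn hF hp hp2 hd
  have hok : ∀ i, 3 ≤ i → i ≤ n → ue i * k ≠ 6 → Ok m (ue i * k) := by
    intro i hi hin h6
    have hu : 3 ≤ ue i := by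
      rw [ue]; split_ifs <;> omega
    have : 3 * 1 ≤ ue i * k := Nat.mul_le_mul hu hk
    exact h.ok_of (by omega) h6 fun p hp hp2 he => psu_of hn hk hF hp hp2 hi hin he
  obtain ⟨p, hp, hp2, hpe, hpN⟩ := h.exists_ten
  obtain ⟨i, hi1, hin, hd⟩ := hdvd p hp hp2 hpN
  rw [hpe] at hd
  obtain ⟨p', hp', hp2', hpe', hpN'⟩ := h.exists_four
  obtain ⟨j, hj1, hjn, hd'⟩ := hdvd p' hp' hp2' hpN'
  rw [hpe'] at hd'
  rcases Nat.even_or_odd n with hev | hodd
  · -- `n` even
    obtain ⟨t, rfl⟩ : ∃ t, n = t + 1 := ⟨n - 1, by omega⟩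
    have ht : ¬ Even t := by
      intro h1
      rw [Nat.even_add_one] at hev
      exact hev h1
    have hut : ue t = 2 * t := by rw [ue, if_neg ht]
    have hle : ue i ≤ 2 * t := by
      rw [ue]
      split_ifs with h1
      · omega
      · rcases Nat.lt_or_ge i (t + 1) with h2 | h2
        · omega
        · obtain rfl : i = t + 1 := by omega
          exact absurd hev h1
    have hpos : 0 < ue i * k := Nat.mul_pos (by rw [ue]; split_ifs <;> omega) hk
    have h3 : 10 * m ≤ ue i * k := Nat.le_of_dvd hpos hd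
    have h4 : ue i * k ≤ 2 * t * k := Nat.mul_le_mul_right k hle
    have h5 := hok t (by
      rcases Nat.lt_or_ge t 3 with h6 | h6
      · exfalso
        obtain rfl : t = 2 := by omega
        exact ht (by decide)
      · exact h6) (by omega) (by rw [hut]; omega)
    rw [hut] at h5
    have h6 := h5.eq (by omega) (by omega)
    -- `2 t k = 10 m`
    rcases Nat.lt_or_ge 6 t with h7 | h7
    · -- second exponent
      exfalso
      obtain ⟨s, rfl⟩ : ∃ s, t = s + 2 := ⟨t - 2, by omega⟩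
      have hs : ¬ Even s := by
        intro h1
        apply ht
        rw [Nat.even_add]
        simp [h1]
      have hus : ue s = 2 * s := by rw [ue, if_neg hs]
      have e1 : 2 * (s + 2) * k = 2 * s * k + 4 * k := by ring
      have e2 : 2 * 7 * k ≤ 2 * (s + 2) * k := Nat.mul_le_mul_right k (by omega)
      have h8 := hok s (by omega) (by omega) (by rw [hus]; omega)
      rw [hus] at h8
      have h9 := h8.eq (by omega) (by omega)
      omega
    · have ht' : t = 3 ∨ t = 5 := by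
        have h8 : t ≠ 4 := by rintro rfl; exact ht (by decide)
        have h9 : t ≠ 6 := by rintro rfl; exact ht (by decide)
        have h10 : t ≠ 2 := by rintro rfl; exact ht (by decide)
        omega
      exfalso
      rcases ht' with rfl | rfl
      · -- `n = 4`
        have h8 : 3 * k = 5 * m := by omega
        have h9 : (4 * 3) * m ∣ (ue j * 5) * m := by
          have h10 : 3 * (4 * m) ∣ 3 * (ue j * k) := Nat.mul_dvd_mul_left 3 hd'
          have e : 3 * (ue j * k) = (ue j * 5) * m := by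
            calc 3 * (ue j * k) = ue j * (3 * k) := by ring
              _ = (ue j * 5) * m := by rw [h8]; ring
          rw [e] at h10
          convert h10 using 1
          ring
        have h10 := Nat.dvd_of_mul_dvd_mul_right (by omega) h9
        interval_cases j <;> revert h10 <;> decide
      · -- `n = 6`
        obtain rfl : k = m := by omega
        obtain ⟨p, hp, hp2, hpe, hp3⟩ : ∃ p : ℕ, p.Prime ∧ p ≠ 2 ∧ orderOf (2 : ZMod p) ∣ 3 * k ∧
            3 ∣ orderOf (2 : ZMod p) ∧ ¬ orderOf (2 : ZMod p) ∣ 2 * k ∧ ¬ orderOf (2 : ZMod p) ∣ 4 * k ∧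
            ¬ orderOf (2 : ZMod p) ∣ 10 * k := by
          rcases Nat.lt_or_ge 2 k with h8 | h8
          · obtain ⟨p, hp, hpe⟩ := exists_prime (e := 3 * k) (by omega) (by omega)
            refine ⟨p, hp, ne_two_of_order hpe (by omega), by rw [hpe], by rw [hpe]; exact dvd_mul_right 3 k, ?_,
              ?_, ?_⟩
            · rw [hpe]; intro h9
              have := Nat.dvd_of_mul_dvd_mul_right (by omega) h9
              omega
            · rw [hpe]; intro h9
              have := Nat.dvd_of_mul_dvd_mul_right (by omega) h9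
              omega
            · rw [hpe]; intro h9
              have := Nat.dvd_of_mul_dvd_mul_right (by omega) h9
              omega
          · obtain rfl : k = 2 := by omega
            obtain ⟨p, hp, hpe⟩ := exists_prime (e := 3) (by omega) (by omega)
            refine ⟨p, hp, ne_two_of_order hpe (by omega), by rw [hpe]; decide, by rw [hpe], ?_, ?_, ?_⟩ <;>
              rw [hpe] <;> decide
        have h8 : p ∣ Nat.card (Cfsg.PSU (5 + 1) F (2 ^ k)) :=
          psu_of' hn hF hp hp2 (i := 6) (by decide) (by norm_num) (by norm_num)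
            (hpe.trans ⟨2, by ring⟩) hp3.2.1
        rcases h.ok p hp hp2 h8 with h9 | h9 | h9 | h9
        · exact hp3.2.1 h9
        · exact h9.2 hpe
        · exact hp3.2.2.1 h9
        · exact hp3.2.2.2 h9.1
  · -- `n` odd
    have hut : ue n = 2 * n := by rw [ue, if_neg (Nat.not_even_iff_odd.2 hodd)]
    have hle : ue i ≤ 2 * n := by
      rw [ue]
      split_ifs <;> omega
    have hpos : 0 < ue i * k := Nat.mul_pos (by rw [ue]; split_ifs <;> omega) hk
    have h3 : 10 * m ≤ ue i * k := Nat.le_of_dvd hpos hd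
    have h4 : ue i * k ≤ 2 * n * k := Nat.mul_le_mul_right k hle
    have h5 := hok n hn le_rfl (by rw [hut]; omega)
    rw [hut] at h5
    have h6 := h5.eq (by omega) (by omega)
    rcases Nat.lt_or_ge 5 n with h7 | h7
    · exfalso
      obtain ⟨s, rfl⟩ : ∃ s, n = s + 2 := ⟨n - 2, by omega⟩
      have hs : ¬ Even s := by
        intro h1
        rw [← Nat.not_even_iff_odd] at hodd
        apply hodd
        rw [Nat.even_add]
        simp [h1]
      have hus : ue s = 2 * s := by rw [ue, if_neg hs]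
      have e1 : 2 * (s + 2) * k = 2 * s * k + 4 * k := by ring
      have hs5 : s ≠ 4 := by rintro rfl; exact hs (by decide)
      have e2 : 2 * 7 * k ≤ 2 * (s + 2) * k := Nat.mul_le_mul_right k (by omega)
      have h8 := hok s (by omega) (by omega) (by rw [hus]; omega)
      rw [hus] at h8
      have h9 := h8.eq (by omega) (by omega)
      omega
    · have hn' : n = 3 ∨ n = 5 := by
        have h8 : n ≠ 4 := by rintro rfl; exact absurd hodd (by decide)
        omega
      rcases hn' with rfl | rfl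
      · exfalso
        have h8 : 3 * k = 5 * m := by omega
        have h9 : (4 * 3) * m ∣ (ue j * 5) * m := by
          have h10 : 3 * (4 * m) ∣ 3 * (ue j * k) := Nat.mul_dvd_mul_left 3 hd'
          have e : 3 * (ue j * k) = (ue j * 5) * m := by
            calc 3 * (ue j * k) = ue j * (3 * k) := by ring
              _ = (ue j * 5) * m := by rw [h8]; ring
          rw [e] at h10
          convert h10 using 1
          ring
        have h10 := Nat.dvd_of_mul_dvd_mul_right (by omega) h9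
        interval_cases j <;> revert h10 <;> decide
      · exact ⟨rfl, by omega⟩

end Groups

end Cfsg.Agent.H224.CharTwoElim
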