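import Cfsg.Agent.H960.KGV.Core
import Cfsg.Agent.H491.KGV.DimTwo
import Cfsg.Agent.H540.ClassNum
import Cfsg.Agent.H717.SmallClass

/-!
# Team KGV (helper960), task 2301: the case `|F| = 11`, `a = 2`, `N / A ≅ A₅` (helper224)
-/

set_option autoImplicit false

namespace Cfsg.Agent.H224.KgvEleven

open Cfsg Cfsg.Agent.H960.KGV Subgroup

variable {H : Type} [Group H] {A N C : Subgroup H} {p f a : ℕ} {F : Type} [Field F] {ψ : C →* GL (Fin a) F}

/-- `A` is central in `C` -/
theorem core_central (h : Core A N C p f a ψ) (x : C) {z : H} (hz : z ∈ A) : (x : H) * z = z * x := by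
  have hzC : z ∈ C := h.NC (h.AN hz)
  obtain ⟨s, hs⟩ := (h.scal ⟨z, hzC⟩).1 hz
  have h1 : x * ⟨z, hzC⟩ = ⟨z, hzC⟩ * x := by
    apply h.inj
    rw [map_mul, map_mul]
    apply Units.ext
    rw [Units.val_mul, Units.val_mul, hs, Matrix.mul_smul, Matrix.smul_mul, mul_one, one_mul]
  exact congrArg Subtype.val h1

/-- elements of `C` centralizing `N` are in `A` -/
theorem core_mem_of_comm (h : Core A N C p f a ψ) (x : C) (hx : ∀ n ∈ N, (x : H) * n = n * x) : (x : H) ∈ A := by
  rw [h.scal]
  apply h.abs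
  intro c hc
  have h1 : x * c = c * x := Subtype.ext (hx c hc)
  rw [← Units.val_mul, ← Units.val_mul, ← map_mul, ← map_mul, h1]

/-- `|A| ≤ |F| - 1` -/
theorem core_card_le (h : Core A N C p f a ψ) : Nat.card A ≤ p ^ f - 1 := by
  have hp := h.prime
  have hf : Finite F := by
    have h1 : Nat.card F ≠ 0 := by rw [h.cardF]; exact (pow_pos hp.pos f).ne'
    exact Nat.finite_of_card_ne_zero h1
  have ha := h.two_le
  let i0 : Fin a := ⟨0, by omega⟩
  let g : A → Fˣ := fun x =>
    have hx := (h.scal ⟨x, h.NC (h.AN x.2)⟩).1 x.2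
    Units.mk0 hx.choose (by
      intro h0
      have h1 := hx.choose_spec
      rw [h0, zero_smul] at h1
      have h2 : IsUnit (0 : Matrix (Fin a) (Fin a) F) := by
        rw [← h1]
        exact Units.isUnit _
      have h3 := (Matrix.isUnit_iff_isUnit_det _).1 h2
      have : Nonempty (Fin a) := ⟨i0⟩
      rw [Matrix.det_zero] at h3
      exact not_isUnit_zero h3)
  have hg : Function.Injective g := by
    intro x y hxy
    have h1 := congrArg Units.val hxy
    have hx := ((h.scal ⟨x, h.NC (h.AN x.2)⟩).1 x.2).choose_spec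
    have hy := ((h.scal ⟨y, h.NC (h.AN y.2)⟩).1 y.2).choose_spec
    have h2 : ψ ⟨x, h.NC (h.AN x.2)⟩ = ψ ⟨y, h.NC (h.AN y.2)⟩ := by
      apply Units.ext
      rw [hx, hy]
      exact congrArg (fun s : F => s • (1 : Matrix (Fin a) (Fin a) F)) h1
    have h3 := congrArg (fun z : C => (z : H)) (h.inj h2)
    exact Subtype.ext h3
  have h1 := Nat.card_le_card_of_injective g hg
  rwa [Nat.card_units, h.cardF] at h1

/-- the homomorphisms to a simple group -/
theorem image_cases {X T : Type*} [Group X] [Group T] [IsSimpleGroup T] (π : X →* T) (hπ : Function.Surjective π)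
    {R R' : Subgroup X} (hR' : R'.Normal) (hle : R ≤ R') (hR : ∀ x ∈ R', ∀ y ∈ R, x * y * x⁻¹ ∈ R) :
    R.map π = ⊥ ∨ R.map π = ⊤ := by
  have h1 : (R'.map π).Normal := hR'.map π hπ
  rcases h1.eq_bot_or_eq_top with h2 | h2
  · left
    rw [eq_bot_iff, ← h2]
    exact Subgroup.map_mono hle
  · have h3 : (R.map π).Normal := by
      constructor
      rintro _ ⟨y, hy, rfl⟩ t
      have ht : t ∈ R'.map π := by rw [h2]; exact mem_top t
      obtain ⟨x, hx, rfl⟩ := ht
      exact ⟨x * y * x⁻¹, hR x hx y hy, by rw [map_mul, map_mul, map_inv]⟩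
    exact h3.eq_bot_or_eq_top

/-- **Task 2301.** -/
theorem core_eleven {ψ : C →* GL (Fin 2) F} (h : Core A N C 11 1 2 ψ) (π : N →* alternatingGroup (Fin 5))
    (hπ : Function.Surjective π) (hk : ∀ x : N, π x = 1 ↔ (x : H) ∈ A) (R : Subgroup H) (hR : Two R) :
    Nat.card (ConjClasses R) ≤ 50 := by
  have hfin := h.fin
  have hAn := h.An
  have hNn := h.Nn
  have hcardF : Nat.card F = 11 := by rw [h.cardF]; norm_num
  have hfF : Finite F := Nat.finite_of_card_ne_zero (by rw [hcardF]; norm_num)
  have h11 : Fact (Nat.Prime 11) := ⟨by norm_num⟩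
  have hchar : CharP F 11 := by
    have := Fintype.ofFinite F
    have h1 : Fintype.card F = 11 := by rw [← Nat.card_eq_fintype_card, hcardF]
    obtain ⟨p, hp⟩ := CharP.exists F
    obtain ⟨n, hpp, hn⟩ := FiniteField.card F p
    rw [h1] at hn
    have h2 : p ∣ 11 := by rw [hn]; exact dvd_pow_self p n.pos.ne'
    have h3 : p = 11 := (Nat.prime_dvd_prime_iff_eq hpp (by norm_num)).1 h2
    rwa [h3] at hp
  -- `C = H`
  have hC : C = ⊤ := Subgroup.index_eq_one.1 (Nat.dvd_one.1 h.index)
  have hmemC : ∀ x : H, x ∈ C := fun x => by rw [hC]; exact mem_top x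
  -- the quotient
  let X := H ⧸ A
  let N' : Subgroup X := N.map (QuotientGroup.mk' A)
  have hN'n : N'.Normal := hNn.map _ (QuotientGroup.mk'_surjective A)
  -- `N / A ≅ A₅`
  let g : N →* N' := ((QuotientGroup.mk' A).comp N.subtype).codRestrict N' fun n => ⟨n, n.2, rfl⟩
  have hg : Function.Surjective g := by
    rintro ⟨_, n, hn, rfl⟩
    exact ⟨⟨n, hn⟩, rfl⟩
  have hgk : g.ker = π.ker := by
    ext x
    rw [MonoidHom.mem_ker, MonoidHom.mem_ker, hk]
    constructor
    · intro h1
      have h2 := congrArg Subtype.val h1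
      exact (QuotientGroup.eq_one_iff (x : H)).1 h2
    · intro h1
      exact Subtype.ext ((QuotientGroup.eq_one_iff (x : H)).2 h1)
  let e : N' ≃* alternatingGroup (Fin 5) :=
    ((QuotientGroup.quotientKerEquivOfSurjective g hg).symm.trans (QuotientGroup.quotientMulEquivOfEq hgk)).trans
      (QuotientGroup.quotientKerEquivOfSurjective π hπ)
  have hsim : IsSimpleGroup (alternatingGroup (Fin 5)) := inferInstance
  -- the centralizer of `N / A`
  have hcen : Subgroup.centralizer (N' : Set X) = ⊥ := by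
    rw [eq_bot_iff]
    intro y hy
    obtain ⟨x, rfl⟩ := QuotientGroup.mk_surjective y
    rw [Subgroup.mem_bot, QuotientGroup.eq_one_iff]
    -- `[x, n] ∈ A`
    have h1 : ∀ n ∈ N, x * n * x⁻¹ * n⁻¹ ∈ A := by
      intro n hn
      rw [Subgroup.mem_centralizer_iff] at hy
      have h2 := hy (QuotientGroup.mk n) ⟨n, hn, rfl⟩
      have h3 : (QuotientGroup.mk (x * n * x⁻¹ * n⁻¹) : H ⧸ A) = 1 := by
        rw [QuotientGroup.mk_mul, QuotientGroup.mk_mul, QuotientGroup.mk_mul, QuotientGroup.mk_inv, QuotientGroup.mk_inv,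
          ← h2, mul_assoc, mul_assoc, mul_inv_cancel_left, mul_inv_cancel]
      exact (QuotientGroup.eq_one_iff _).1 h3
    -- the homomorphism `n ↦ [x, n]`
    have hAc : ∀ (z w : H), z ∈ A → w * z = z * w := fun z w hz => core_central h ⟨w, hmemC w⟩ hz
    let c : N →* A := 
      { toFun := fun n => ⟨x * n * x⁻¹ * (n : H)⁻¹, h1 n n.2⟩
        map_one' := Subtype.ext (by simp)
        map_mul' := fun m n => Subtype.ext (by
          show x * (m * n : H) * x⁻¹ * (m * n : H)⁻¹ = (x * m * x⁻¹ * (m : H)⁻¹) * (x * n * x⁻¹ * (n : H)⁻¹)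
          have h2 := hAc _ (m : H) (h1 n n.2)
          have h3 : x * (m * n : H) * x⁻¹ * (m * n : H)⁻¹ =
              x * m * x⁻¹ * ((x * n * x⁻¹ * (n : H)⁻¹) * (m : H)⁻¹) := by group
          have h4 : (x * n * x⁻¹ * (n : H)⁻¹) * (m : H)⁻¹ = (m : H)⁻¹ * (x * n * x⁻¹ * (n : H)⁻¹) :=
            (hAc _ (m : H)⁻¹ (h1 n n.2)).symm
          rw [h3, h4]
          group) }
    have hcA : ∀ n : N, (n : H) ∈ A → c n = 1 := by
      intro n hn
      apply Subtype.ext
      show x * n * x⁻¹ * (n : H)⁻¹ = 1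
      rw [hAc n x hn]
      group
    -- `N` is generated by commutators and `A`
    have hcomm : ∀ n : N, c n = 1 := by
      intro n
      have hperf : commutator (alternatingGroup (Fin 5)) = ⊤ := by
        have hn : (commutator (alternatingGroup (Fin 5))).Normal := inferInstance
        rcases hn.eq_bot_or_eq_top with h5 | h5
        · exfalso
          have h6 := (Subgroup.commutator_eq_bot_iff_le_centralizer).1 h5
          have h7 : ∀ a b : alternatingGroup (Fin 5), a * b = b * a := fun a b =>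
            ((Subgroup.mem_centralizer_iff.1 (h6 (mem_top a))) b (mem_top b)).symm
          have h8 := congrArg Subtype.val (h7
            ⟨Equiv.swap 0 1 * Equiv.swap 1 2, Equiv.Perm.mem_alternatingGroup.2 (by decide +kernel)⟩
            ⟨Equiv.swap 1 2 * Equiv.swap 2 3, Equiv.Perm.mem_alternatingGroup.2 (by decide +kernel)⟩)
          exact absurd h8 (by decide +kernel)
        · exact h5
      have h5 : (commutator N).map π = ⊤ := by
        rw [_root_.commutator_def, Subgroup.map_commutator, ← MonoidHom.range_eq_map, MonoidHom.range_eq_top.2 hπ,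
          ← _root_.commutator_def, hperf]
      have h6 : π n ∈ (commutator N).map π := by rw [h5]; exact mem_top _
      obtain ⟨k, hk1, hk2⟩ := h6
      have h7 : (n * k⁻¹ : N) ∈ π.ker := by rw [MonoidHom.mem_ker, map_mul, map_inv, hk2, mul_inv_cancel]
      have h8 : c (n * k⁻¹) = 1 := hcA _ ((hk _).1 h7)
      have h9 : c k = 1 := by
        have h10 : commutator N ≤ c.ker := by
          rw [commutator_def, Subgroup.commutator_le]
          intro a _ b _
          rw [MonoidHom.mem_ker, map_commutatorElement, commutatorElement_eq_one_iff_mul_comm]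
          exact Subtype.ext (hAc _ _ (c b).2)
        exact h10 hk1
      calc c n = c (n * k⁻¹ * k) := by rw [inv_mul_cancel_right]
        _ = 1 := by rw [map_mul, h8, h9, one_mul]
    apply core_mem_of_comm h ⟨x, hmemC x⟩
    intro n hn
    have h2 := congrArg Subtype.val (hcomm ⟨n, hn⟩)
    have h3 : x * n * x⁻¹ * n⁻¹ = 1 := h2
    show x * n = n * x
    rw [mul_inv_eq_one, mul_inv_eq_iff_eq_mul] at h3
    exact h3
  -- `H / A` in `PGL₂`
  have hp : ¬ 11 ∣ Nat.card X := fun h1 => h.coprime (h1.trans (Subgroup.card_quotient_dvd_card A))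
  let ψe : C ≃* ψ.range := MonoidHom.ofInjective h.inj
  let φ : ψ.range →* X := (QuotientGroup.mk' A).comp (C.subtype.comp ψe.symm.toMonoidHom)
  have hφ' : ∀ c : C, φ (ψe c) = QuotientGroup.mk (c : H) := by
    intro c
    show QuotientGroup.mk ((ψe.symm (ψe c) : C) : H) = _
    rw [MulEquiv.symm_apply_apply]
  have hφ : Function.Surjective φ := by
    intro y
    obtain ⟨x, rfl⟩ := QuotientGroup.mk_surjective y
    exact ⟨ψe ⟨x, hmemC x⟩, hφ' _⟩
  have htop : N' = ⊤ := by
    refine Cfsg.Agent.H491.KGV.pgl2 (p := 11) (F := F) hp N' e hcen ψ.range φ hφ ?_ ?_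
    · intro y hy
      obtain ⟨c, rfl⟩ := ψe.surjective y
      rw [MonoidHom.mem_ker, hφ', QuotientGroup.eq_one_iff] at hy
      exact (h.scal c).1 hy
    · intro y s hy
      obtain ⟨c, rfl⟩ := ψe.surjective y
      rw [MonoidHom.mem_ker, hφ', QuotientGroup.eq_one_iff]
      exact (h.scal c).2 ⟨s, hy⟩
  -- the map to `A₅`
  let θ : H →* alternatingGroup (Fin 5) :=
    e.toMonoidHom.comp ((MulEquiv.subgroupCongr htop).symm.toMonoidHom.comp
      (Subgroup.topEquiv.symm.toMonoidHom.comp (QuotientGroup.mk' A)))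
  have hθk : ∀ x : H, θ x = 1 ↔ x ∈ A := by
    intro x
    show e ((MulEquiv.subgroupCongr htop).symm (Subgroup.topEquiv.symm (QuotientGroup.mk x))) = 1 ↔ _
    rw [map_eq_one_iff e e.injective, map_eq_one_iff _ (MulEquiv.injective _),
      map_eq_one_iff _ (MulEquiv.injective _), QuotientGroup.eq_one_iff]
  have hθ : Function.Surjective θ :=
    e.surjective.comp (((MulEquiv.subgroupCongr htop).symm.surjective.comp Subgroup.topEquiv.symm.surjective).comp
      (QuotientGroup.mk'_surjective A))
  obtain ⟨R', hR'n, hle, hRR⟩ := hR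
  have hcases := image_cases θ hθ hR'n hle hRR
  let τ : R →* alternatingGroup (Fin 5) := θ.comp R.subtype
  have h1 := Cfsg.Agent.H540.ClassNum.le_ker_mul_range τ
  have h2 : Nat.card (ConjClasses τ.ker) ≤ 10 := by
    refine Cfsg.Agent.H540.ClassNum.card_conjClasses_le_card.trans ?_
    have h3 : Nat.card τ.ker ≤ Nat.card A := by
      refine Nat.card_le_card_of_injective (fun x : τ.ker => (⟨((x : R) : H), (hθk _).1 x.2⟩ : A)) ?_
      intro x y hxy
      have h4 := congrArg Subtype.val hxy
      exact Subtype.ext (Subtype.ext h4)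
    refine h3.trans ((core_card_le h).trans ?_)
    norm_num
  have h3 : Nat.card (ConjClasses τ.range) ≤ 5 := by
    have h4 : τ.range = R.map θ := by
      rw [MonoidHom.range_eq_map, ← Subgroup.map_map, ← MonoidHom.range_eq_map, Subgroup.range_subtype]
    rw [h4]
    rcases hcases with h5 | h5
    · rw [h5]
      refine Cfsg.Agent.H540.ClassNum.card_conjClasses_le_card.trans ?_
      rw [Subgroup.card_bot]
      norm_num
    · rw [h5, Cfsg.Agent.H540.ClassNum.card_conjClasses_congr Subgroup.topEquiv,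
        Cfsg.Agent.H717.SmallClass.conj_alt_five]
  calc Nat.card (ConjClasses R) ≤ Nat.card (ConjClasses τ.ker) * Nat.card (ConjClasses τ.range) := h1
    _ ≤ 10 * 5 := Nat.mul_le_mul h2 h3
    _ = 50 := rfl

end Cfsg.Agent.H224.KgvEleven
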